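import Cfsg.Agent.Lib.Y532.D.S3_Tab
import Cfsg.Agent.Lib.Y532.D.S3_C0
import Cfsg.Agent.Lib.Y532.D.S3_C1
import Cfsg.Agent.Lib.Y532.D.S3_C2

namespace Cfsg.Agent.Lib.Y532.D.S3

open Cfsg.Agent.Lib.TC.Core Cfsg.Agent.Lib.TC.Enc Cfsg.Agent.Lib.TC.Pres Cfsg.Agent.Lib.TC.Perm Cfsg.Agent.Lib.TC.Main Cfsg.Agent.Lib.TC.Chain

set_option maxRecDepth 100000

open Cfsg.Agent.Lib.Y532.D.S3_Tab Cfsg.Agent.Lib.Y532.G

theorem allC0 : cert.chkRange 0 1923 = true := Cfsg.Agent.Lib.Y532.D.S3_C0.ok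
theorem allC1 : cert.chkRange 0 3647 = true := Cert.chkRange_join (lo := 0) (a := 1923) (b := 1724) _ allC0 Cfsg.Agent.Lib.Y532.D.S3_C1.ok
theorem allC2 : cert.chkRange 0 4622 = true := Cert.chkRange_join (lo := 0) (a := 3647) (b := 975) _ allC1 Cfsg.Agent.Lib.Y532.D.S3_C2.ok

theorem hFinal : cert.chkFinal 0 4622 = true := by decide +kernel

theorem h0 : cert.eLvl (cert.par (cert.find cert.MAX cert.D 0)) = cert.MAX := by decide +kernel

theorem hcount : cert.countRoots cert.N = 3159 := by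
  rw [countRoots_eq_acc]
  decide +kernel

theorem hchecked : Checked cert where
  hN := by decide
  hC := allC2
  hF := hFinal
  h0 := h0

theorem stage : Lt (K.E Rel) ls' ≤ Lt (K.E Rel) ls ∧
    Nat.card (Lt (K.E Rel) ls) = Nat.card (Lt (K.E Rel) ls') * (Lt (K.E Rel) ls').relIndex (Lt (K.E Rel) ls) ∧
    (Lt (K.E Rel) ls').relIndex (Lt (K.E Rel) ls) ≠ 0 ∧ (Lt (K.E Rel) ls').relIndex (Lt (K.E Rel) ls) ≤ 3159 :=
  stage_of_cols valid hrels ls ls' inv' rels' subs' witT.get cert 3159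
    (by decide +kernel) (by decide) (by decide +kernel) (by decide +kernel) (by decide +kernel) hchecked hcount

end Cfsg.Agent.Lib.Y532.D.S3
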