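import Cfsg.Agent.Lib.Y532.G
import Cfsg.Agent.Lib.TC.Chain
import Cfsg.Agent.Lib.Y532.D.A1_T0

namespace Cfsg.Agent.Lib.Y532.D.A1_Tab

open Cfsg.Agent.Lib.TC.Core Cfsg.Agent.Lib.TC.Enc Cfsg.Agent.Lib.TC.Pres Cfsg.Agent.Lib.TC.Perm Cfsg.Agent.Lib.TC.Main Cfsg.Agent.Lib.TC.Chain

set_option maxRecDepth 100000

/-- The chunks of the certificate. -/
noncomputable def ctree : Tr Nat := Cfsg.Agent.Lib.Y532.D.A1_T0.tree

/-- The relator rotations. -/
noncomputable def rotT : Tr (List Nat) := (Tr.node (Tr.leaf [])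
 (Tr.leaf [0,0]))

/-- The subgroup rotations. -/
noncomputable def srotT : Tr (List Nat × Nat × List Nat) := (Tr.leaf ([],0,[]))

/-- The certificate. -/
noncomputable def cert : Cert :=
  mkCert 1 2 2 2 2 2 4 15 19 7 7 16 127 511 2 2 3 3 4 4 1 ctree.get rotT.get srotT.get

/-- The witnesses of the rotations. -/
noncomputable def witT : Tr (Nat × Nat × Bool) := (Tr.node (Tr.leaf (0,0,false))
 (Tr.leaf (0,0,false)))

/-- The letters. -/
def ls : List Nat := [0]

/-- The smaller letters. -/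
def ls' : List Nat := []

/-- The inverses. -/
def inv' (c : Nat) : Nat := [0].getD c 0

/-- The relators. -/
def rels' : List (List Nat) :=
  [[0,0]]

/-- The subgroup. -/
def subs' : List (List Nat) :=
  []

end Cfsg.Agent.Lib.Y532.D.A1_Tab
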