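import Cfsg.Agent.Lib.TC.Enc

namespace Cfsg.Agent.Lib.Y532.D.A3_T0

open Cfsg.Agent.Lib.TC.Enc

set_option maxRecDepth 100000

/-- A part of a table. -/
noncomputable def tree : Tr Nat :=
  (Tr.leaf (nat_lit 0x5000c7764a59d040062a707025a00030c1a1404a0001804a40c00))

end Cfsg.Agent.Lib.Y532.D.A3_T0
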