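import Cfsg.Agent.Lib.TC.Enc

namespace Cfsg.Agent.Lib.Y532.D.D4_T0

open Cfsg.Agent.Lib.TC.Enc

set_option maxRecDepth 100000

/-- A part of a table. -/
noncomputable def tree : Tr Nat :=
  (Tr.leaf (nat_lit 0xd8000404670cef95de7bba28000800edb99a6b3215623000102d5619a624540cbc4000205a22323d8aa2910480004093340a9088b41980800080e44810e019411230000101004308c511404380000200087200a200c000))

end Cfsg.Agent.Lib.Y532.D.D4_T0
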