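import Cfsg.Agent.Lib.Y532.G
import Cfsg.Agent.Lib.TC.Chain
import Cfsg.Agent.Lib.Y532.D.D4_T0

namespace Cfsg.Agent.Lib.Y532.D.D4_Tab

open Cfsg.Agent.Lib.TC.Core Cfsg.Agent.Lib.TC.Enc Cfsg.Agent.Lib.TC.Pres Cfsg.Agent.Lib.TC.Perm Cfsg.Agent.Lib.TC.Main Cfsg.Agent.Lib.TC.Chain

set_option maxRecDepth 100000

/-- The chunks of the certificate. -/
noncomputable def ctree : Tr Nat := Cfsg.Agent.Lib.Y532.D.D4_T0.tree

/-- The relator rotations. -/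
noncomputable def rotT : Tr (List Nat) := (Tr.node (Tr.node (Tr.node (Tr.node (Tr.leaf [])
 (Tr.leaf [0,1,0,1,0,1]))
 (Tr.node (Tr.leaf [3,3])
 (Tr.leaf [1,2,1,2])))
 (Tr.node (Tr.node (Tr.leaf [1,1])
 (Tr.leaf [0,2,0,2,0,2]))
 (Tr.node (Tr.leaf [2,3,2,3])
 (Tr.leaf [2,0,2,0,2,0]))))
 (Tr.node (Tr.node (Tr.node (Tr.leaf [0,0])
 (Tr.leaf [3,1,3,1]))
 (Tr.node (Tr.leaf [1,3,1,3])
 (Tr.leaf [1,0,1,0,1,0])))
 (Tr.node (Tr.node (Tr.leaf [2,2])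
 (Tr.leaf [3,2,3,2]))
 (Tr.node (Tr.leaf [3,0,3,0,3,0])
 (Tr.leaf [0,3,0,3,0,3])))))

/-- The subgroup rotations. -/
noncomputable def srotT : Tr (List Nat × Nat × List Nat) := (Tr.node (Tr.node (Tr.leaf ([],0,[]))
 (Tr.leaf ([],2,[])))
 (Tr.node (Tr.leaf ([],1,[]))
 (Tr.leaf ([],0,[]))))

/-- The certificate. -/
noncomputable def cert : Cert :=
  mkCert 4 8 32 2 16 19 4 15 87 15 60 81 32767 2097151 6 4 63 15 10 8 3 ctree.get rotT.get srotT.get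

/-- The witnesses of the rotations. -/
noncomputable def witT : Tr (Nat × Nat × Bool) := (Tr.node (Tr.node (Tr.node (Tr.node (Tr.leaf (0,0,false))
 (Tr.leaf (1,1,false)))
 (Tr.node (Tr.leaf (9,0,false))
 (Tr.leaf (4,1,false))))
 (Tr.node (Tr.node (Tr.leaf (2,0,false))
 (Tr.leaf (3,1,false)))
 (Tr.node (Tr.leaf (8,1,false))
 (Tr.leaf (3,0,false)))))
 (Tr.node (Tr.node (Tr.node (Tr.leaf (0,0,false))
 (Tr.leaf (7,0,false)))
 (Tr.node (Tr.leaf (7,1,false))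
 (Tr.leaf (1,0,false))))
 (Tr.node (Tr.node (Tr.leaf (5,0,false))
 (Tr.leaf (8,0,false)))
 (Tr.node (Tr.leaf (6,0,false))
 (Tr.leaf (6,1,false))))))

/-- The letters. -/
def ls : List Nat := [0,1,6,9]

/-- The smaller letters. -/
def ls' : List Nat := [0,1,6]

/-- The inverses. -/
def inv' (c : Nat) : Nat := [0,1,2,3].getD c 0

/-- The relators. -/
def rels' : List (List Nat) :=
  [[0,0],
   [1,0,1,0,1,0],
   [1,1],
   [2,0,2,0,2,0],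
   [2,1,2,1],
   [2,2],
   [3,0,3,0,3,0],
   [3,1,3,1],
   [3,2,3,2],
   [3,3]]

/-- The subgroup. -/
def subs' : List (List Nat) :=
  [[0],[1],[2]]

end Cfsg.Agent.Lib.Y532.D.D4_Tab
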