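import Cfsg.Agent.Lib.TC.Enc

namespace Cfsg.Agent.Lib.Y532.D.D5_T0

open Cfsg.Agent.Lib.TC.Enc

set_option maxRecDepth 100000

/-- A part of a table. -/
noncomputable def tree : Tr Nat :=
  (Tr.leaf (nat_lit 0x500003222711e700e2d626f1a6e2e000322e2b2a2a026c09e85e290c0003259e655e535e4022705a38800032151d11614d9f499e01e2860003214d851a04d5b495a45596600032019c10d341163d15391404000320157011234d130d0048f22000322c8d288c248b084a00ce400003220481c470c0500891846000003270036c02004468016400))

end Cfsg.Agent.Lib.Y532.D.D5_T0
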