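import Cfsg.Agent.Lib.Y532.D.Top_Tab

namespace Cfsg.Agent.Lib.Y532.D.Top_C12

open Cfsg.Agent.Lib.TC.Core Cfsg.Agent.Lib.TC.Enc Cfsg.Agent.Lib.TC.Pres Cfsg.Agent.Lib.TC.Perm Cfsg.Agent.Lib.TC.Main Cfsg.Agent.Lib.TC.Chain

set_option maxRecDepth 100000

open Cfsg.Agent.Lib.Y532.D.Top_Tab in
theorem ok : cert.chkRange 27632 3168 = true := by decide +kernel

end Cfsg.Agent.Lib.Y532.D.Top_C12
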